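import Mathlib
import Cfsg.Agent.Lib.Classical.Spread.NF
import Cfsg.Agent.Lib.Classical.Symp.SpGL

/-!
# Field-extension subgroups of symplectic groups: the setting

`b` is a nondegenerate alternating `K`-bilinear form on `V`, and `M` is a group of `F`-linear
isometries of `Tr ∘ b` containing all the `K`-linear isometries of `b`.
-/

set_option autoImplicit false

namespace Cfsg.Agent.Lib.Classical.Spread

open Module

variable {F K V : Type*} [Field F] [Field K] [Algebra F K] [AddCommGroup V] [Module F V]
  [Module K V] [IsScalarTower F K V]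

variable (F) in
/-- The `F`-functional `x ↦ Tr (b x p)`. -/
noncomputable def BF (b : V →ₗ[K] V →ₗ[K] K) (p : V) : V →ₗ[F] F :=
  (Algebra.trace F K).comp ((b.flip p).restrictScalars F)

@[simp] theorem BF_apply (b : V →ₗ[K] V →ₗ[K] K) (p x : V) :
    BF F b p x = Algebra.trace F K (b x p) := rfl

variable (F) in
/-- `x ↦ Tr (b x p) • q + Tr (b x q) • p`. -/
noncomputable def PP (b : V →ₗ[K] V →ₗ[K] K) (p q : V) : Module.End F V :=
  fl (BF F b p) q + fl (BF F b q) p

theorem PP_apply (b : V →ₗ[K] V →ₗ[K] K) (p q x : V) :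
    PP F b p q x = Algebra.trace F K (b x p) • q + Algebra.trace F K (b x q) • p := rfl

variable (F) in
/-- The `F`-transvection map `x ↦ (c * Tr (b x w)) • w`. -/
noncomputable def TT (b : V →ₗ[K] V →ₗ[K] K) (w : V) (c : F) : Module.End F V :=
  fl (c • BF F b w) w

theorem TT_apply (b : V →ₗ[K] V →ₗ[K] K) (w : V) (c : F) (x : V) :
    TT F b w c x = (c * Algebra.trace F K (b x w)) • w := rfl

/-- The `K`-linear short root map. -/
noncomputable def sE (F : Type*) {K V : Type*} [Field F] [Field K] [Algebra F K] [AddCommGroup V]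
    [Module F V] [Module K V] [IsScalarTower F K V] (b : V →ₗ[K] V →ₗ[K] K) (a : K) (p q : V) :
    Module.End F V :=
  kt F (a • b.flip p) q + kt F (a • b.flip q) p

theorem sE_apply (b : V →ₗ[K] V →ₗ[K] K) (a : K) (p q x : V) :
    sE F b a p q x = (a * b x p) • q + (a * b x q) • p := rfl

/-- The `K`-linear long root map. -/
noncomputable def rE (F : Type*) {K V : Type*} [Field F] [Field K] [Algebra F K] [AddCommGroup V]
    [Module F V] [Module K V] [IsScalarTower F K V] (b : V →ₗ[K] V →ₗ[K] K) (a : K) (w : V) :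
    Module.End F V :=
  kt F (a • b.flip w) w

theorem rE_apply (b : V →ₗ[K] V →ₗ[K] K) (a : K) (w x : V) :
    rE F b a w x = (a * b x w) • w := rfl

/-- The setting. -/
structure SpG (b : V →ₗ[K] V →ₗ[K] K) (M : Subgroup (Module.End F V)ˣ) : Prop where
  alt : ∀ x, b x x = 0
  nd : ∀ x, (∀ y, b x y = 0) → x = 0
  iso : ∀ u ∈ M, ∀ x y, Algebra.trace F K (b (u.val x) (u.val y)) = Algebra.trace F K (b x y)
  lin : ∀ u : (Module.End F V)ˣ, (∀ (t : K) (x : V), u.val (t • x) = t • u.val x) →
    (∀ x y, b (u.val x) (u.val y) = b x y) → u ∈ M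

/-- The unit attached to a `K`-linear automorphism. -/
def gU (F : Type*) {K V : Type*} [Field F] [Field K] [Algebra F K] [AddCommGroup V]
    [Module F V] [Module K V] [IsScalarTower F K V] (g : V ≃ₗ[K] V) : (Module.End F V)ˣ where
  val := g.toLinearMap.restrictScalars F
  inv := g.symm.toLinearMap.restrictScalars F
  val_inv := by ext x; simp [Module.End.mul_apply]
  inv_val := by ext x; simp [Module.End.mul_apply]

theorem gU_apply (g : V ≃ₗ[K] V) (x : V) : (gU F g).val x = g x := rfl

section
variable {b : V →ₗ[K] V →ₗ[K] K} {M : Subgroup (Module.End F V)ˣ}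

include F M in
theorem SpG.skew (hG : SpG b M) (x y : V) : b x y = - b y x := by
  have := hG.alt (x + y)
  simp only [map_add, LinearMap.add_apply, hG.alt, zero_add, add_zero] at this
  exact eq_neg_of_add_eq_zero_right this

theorem SpG.tr_skew (hG : SpG b M) (x y : V) :
    Algebra.trace F K (b x y) = - Algebra.trace F K (b y x) := by
  rw [hG.skew x y, map_neg]

theorem SpG.nd' (hG : SpG b M) (x : V) (h : ∀ y, b y x = 0) : x = 0 :=
  hG.nd x fun y => by rw [hG.skew, h, neg_zero]

/-- The nondegeneracy of the trace form. -/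
theorem tr_nd [FiniteDimensional F K] [Algebra.IsSeparable F K] {z : K}
    (h : ∀ t : K, Algebra.trace F K (t * z) = 0) : z = 0 := by
  have hB := traceForm_nondegenerate F K
  apply hB.2
  intro t
  exact h t

/-- Every `K`-functional is `b · w`. -/
theorem SpG.exists_riesz [FiniteDimensional K V] (hG : SpG b M) (f : V →ₗ[K] K) :
    ∃ w, ∀ x, f x = b x w := by
  have hinj : Function.Injective b.flip := by
    rw [injective_iff_map_eq_zero]
    intro w hw
    exact hG.nd' w fun y => by
      have := LinearMap.congr_fun hw y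
      simpa using this
  have hdim : finrank K V = finrank K (V →ₗ[K] K) := (Subspace.dual_finrank_eq).symm
  obtain ⟨w, hw⟩ := (LinearMap.injective_iff_surjective_of_finrank_eq_finrank hdim).mp hinj f
  exact ⟨w, fun x => by rw [← hw]; rfl⟩

/-- A square-zero `K`-linear map with the isometry relation gives an element of `M`. -/
theorem SpG.isIn_of_lin (hG : SpG b M) (E : Module.End F V)
    (hK : ∀ (t : K) (x : V), E (t • x) = t • E x) (hsq : ∀ x, E (E x) = 0)
    (hiso : ∀ x y, b (E x) y + b x (E y) + b (E x) (E y) = 0) : IsIn M E := by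
  have h2 : E * E = 0 := by
    ext x
    exact hsq x
  refine ⟨h2, hG.lin _ ?_ ?_⟩
  · intro t x
    simp [hK, smul_add]
  · intro x y
    simp only [sqU_val, LinearMap.add_apply, Module.End.one_apply, map_add]
    linear_combination hiso x y

theorem SpG.root_isIn (hG : SpG b M) (a : K) (w : V) : IsIn M (rE F b a w) := by
  refine hG.isIn_of_lin _ ?_ ?_ ?_
  · intro t x
    simp [rE_apply, smul_smul, mul_left_comm]
  · intro x
    simp [rE_apply, hG.alt]
  · intro x y
    simp only [rE_apply, map_smul, LinearMap.smul_apply, smul_eq_mul, hG.alt]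
    rw [hG.skew w y]
    ring

theorem SpG.short_isIn (hG : SpG b M) {p q : V} (hpq : b p q = 0) (a : K) :
    IsIn M (sE F b a p q) := by
  have hqp : b q p = 0 := by rw [hG.skew, hpq, neg_zero]
  refine hG.isIn_of_lin _ ?_ ?_ ?_
  · intro t x
    simp only [sE_apply, map_smul, LinearMap.smul_apply, smul_eq_mul, smul_add, smul_smul]
    congr 2 <;> ring
  · intro x
    simp [sE_apply, hG.alt, hpq, hqp]
  · intro x y
    simp only [sE_apply, map_add, map_smul, LinearMap.add_apply, LinearMap.smul_apply, smul_eq_mul,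
      hG.alt, hpq, hqp]
    rw [hG.skew q y, hG.skew p y]
    ring

theorem SpG.gU_mem (hG : SpG b M) (g : V ≃ₗ[K] V) (h : ∀ x y, b (g x) (g y) = b x y) :
    gU F g ∈ M :=
  hG.lin _ (fun t x => map_smul g t x) h

/-- Conjugation. -/
theorem SpG.conj_P (hG : SpG b M) {u : (Module.End F V)ˣ} (hu : u ∈ M) {p q : V}
    (hin : IsIn M (PP F b p q)) : IsIn M (PP F b (u.val p) (u.val q)) := by
  have hc := isIn_conj hin u hu
  convert hc using 1
  ext x
  have h1 : ∀ r, Algebra.trace F K (b ((u⁻¹ : (Module.End F V)ˣ).val x) r)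
      = Algebra.trace F K (b x (u.val r)) := by
    intro r
    have := hG.iso u hu ((u⁻¹ : (Module.End F V)ˣ).val x) r
    rw [apply_inv_apply] at this
    exact this.symm
  simp only [Module.End.mul_apply, PP_apply, map_add, map_smul, h1]

theorem SpG.conj_T (hG : SpG b M) {u : (Module.End F V)ˣ} (hu : u ∈ M) {w : V} {c : F}
    (hin : IsIn M (TT F b w c)) : IsIn M (TT F b (u.val w) c) := by
  have hc := isIn_conj hin u hu
  convert hc using 1
  ext x
  have h1 : ∀ r, Algebra.trace F K (b ((u⁻¹ : (Module.End F V)ˣ).val x) r)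
      = Algebra.trace F K (b x (u.val r)) := by
    intro r
    have := hG.iso u hu ((u⁻¹ : (Module.End F V)ˣ).val x) r
    rw [apply_inv_apply] at this
    exact this.symm
  simp only [Module.End.mul_apply, TT_apply, map_smul, h1]

/-- Witt's theorem for vectors: the `K`-isometries are transitive on nonzero vectors. -/
theorem SpG.exists_isom [FiniteDimensional K V] (hG : SpG b M) {v v' : V} (hv : v ≠ 0)
    (hv' : v' ≠ 0) : ∃ g : V ≃ₗ[K] V, (∀ x y, b (g x) (g y) = b x y) ∧ g v = v' := by
  have hB : LinearMap.BilinForm.Nondegenerate (b : LinearMap.BilinForm K V) :=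
    ⟨fun x hx => hG.nd x hx, fun x hx => hG.nd' x hx⟩
  have hA : LinearMap.BilinForm.IsAlt (b : LinearMap.BilinForm K V) := fun x => hG.alt x
  have hinj : ∀ w : V, w ≠ 0 → Function.Injective (LinearMap.toSpanSingleton K V w) := by
    intro w hw s t hst
    have : s • w = t • w := hst
    exact smul_left_injective K hw this
  obtain ⟨g, hg, hg2⟩ := Cfsg.Agent.Lib.Classical.Symp.SpGL.witt_of_injective
    (b : LinearMap.BilinForm K V) hB hA (LinearMap.toSpanSingleton K V v)
    (LinearMap.toSpanSingleton K V v') (hinj v hv) (hinj v' hv') (fun s t => by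
      simp [hG.alt])
  refine ⟨g, hg, ?_⟩
  simpa using hg2 1

end

end Cfsg.Agent.Lib.Classical.Spread
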