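import Mathlib
import Cfsg.Agent.Lib.Classical.Spread.SpBasic

/-!
# Adjacency for the symplectic form
-/

set_option autoImplicit false

namespace Cfsg.Agent.Lib.Classical.Spread

open Module

variable {F K V : Type*} [Field F] [Field K] [Algebra F K] [AddCommGroup V] [Module F V]
  [Module K V] [IsScalarTower F K V]

section
variable {b : V →ₗ[K] V →ₗ[K] K} {M : Subgroup (Module.End F V)ˣ}

/-- A map of `M` moving `W` along `w` and keeping `W ∩ K w` fixed increases the intersection. -/
theorem adj_of_R [FiniteDimensional F K] [FiniteDimensional K V] {h : (Module.End F V)ˣ}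
    (hh : h ∈ M) {w z : V} (hz : z ≠ 0) {d : ℕ}
    (hPd : finrank F ↥(umap h (kline F K z) ⊓ kline F K w) = d) {R : (Module.End F V)ˣ}
    (hR : R ∈ M) (g : V → K)
    (hRg : ∀ x ∈ umap h (kline F K z), R.val x = x + g x • w)
    (hgP : ∀ p ∈ umap h (kline F K z) ⊓ kline F K w, g p = 0) {x₁ x₂ : V}
    (hx₁W : x₁ ∈ umap h (kline F K z)) (hx₂W : x₂ ∈ umap h (kline F K z))
    (hx₁P : x₁ ∉ umap h (kline F K z) ⊓ kline F K w)
    (hg₁ : g x₁ • w ∈ umap h (kline F K z)) (hg₂ : g x₂ • w ∉ umap h (kline F K z)) :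
    Adj K M (d + 1) := by
  classical
  have hfin : FiniteDimensional F V := FiniteDimensional.trans F K V
  set W := umap h (kline F K z) with hW
  set P := W ⊓ kline F K w with hP
  have hRx₁ : R.val x₁ = x₁ + g x₁ • w := hRg _ hx₁W
  have hRx₁W : R.val x₁ ∈ W := by
    rw [hRx₁]
    exact W.add_mem hx₁W hg₁
  have hRx₂ : R.val x₂ ∉ W := by
    rw [hRg _ hx₂W]
    intro hmem
    apply hg₂
    have := W.sub_mem hmem hx₂W
    simpa using this
  have hRP : ∀ p ∈ P, R.val p = p := by
    intro p hp
    rw [hRg _ hp.1, hgP p hp]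
    simp
  have hx₁l : x₁ ∉ kline F K w := fun hl => hx₁P ⟨hx₁W, hl⟩
  set h' := h⁻¹ * R * h with hh'
  have hh'M : h' ∈ M := M.mul_mem (M.mul_mem (M.inv_mem hh) hR) hh
  have hh'app : ∀ x, h'.val x = (h⁻¹ : (Module.End F V)ˣ).val (R.val (h.val x)) := fun x => rfl
  refine ⟨z, z, h', hh'M, hz, hz, ?_, ?_⟩
  · intro heq
    apply hRx₂
    obtain ⟨a, ha, hax⟩ := hx₂W
    have h1 : h'.val a ∈ kline F K z := by
      rw [← heq]
      exact Submodule.mem_map_of_mem ha
    have h2 : h.val (h'.val a) ∈ W := Submodule.mem_map_of_mem h1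
    rw [hh'app, apply_inv_apply] at h2
    have hax' : h.val a = x₂ := hax
    rwa [hax'] at h2
  · have hRx₁P : R.val x₁ ∉ P := by
      intro hmem
      apply hx₁l
      have h1 : R.val x₁ ∈ kline F K w := hmem.2
      rw [hRx₁] at h1
      have := (kline F K w).sub_mem h1 (smul_mem_kline (F := F) w (g x₁))
      simpa using this
    have hle : P ⊔ Submodule.span F {R.val x₁} ≤
        umap h (umap h' (kline F K z) ⊓ kline F K z) := by
      have key : ∀ y ∈ W, (R.val y ∈ W) →
          R.val y ∈ umap h (umap h' (kline F K z) ⊓ kline F K z) := by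
        intro y hy hRy
        obtain ⟨a, ha, hax⟩ := hy
        have hax' : h.val a = y := hax
        obtain ⟨b', hb', hbx⟩ := hRy
        have hbx' : h.val b' = R.val y := hbx
        refine ⟨b', ⟨⟨a, ha, ?_⟩, hb'⟩, hbx'⟩
        change h'.val a = b'
        rw [hh'app, hax', ← hbx', inv_apply_apply]
      apply sup_le
      · intro p hp
        have := key p hp.1 (by rw [hRP p hp]; exact hp.1)
        rwa [hRP p hp] at this
      · rw [Submodule.span_singleton_le_iff_mem]
        exact key x₁ hx₁W hRx₁W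
    have := Submodule.finrank_mono hle
    rw [Submodule.finrank_sup_span_singleton hRx₁P, finrank_umap, hPd] at this
    omega

/-- The inductive step of adjacency for the symplectic form. -/
theorem SpG.adj_step [FiniteDimensional F K] [FiniteDimensional K V] (hG : SpG b M)
    (hr : (finrank F K).Prime) {d : ℕ} (hd : 1 ≤ d) (hd2 : d + 1 < finrank F K)
    (hA : Adj K M d) : Adj K M (d + 1) := by
  classical
  have hfin : FiniteDimensional F V := FiniteDimensional.trans F K V
  obtain ⟨w, z, h, hh, hw, hz, hne, hfr⟩ := hA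
  set W := umap h (kline F K z) with hW
  set P := W ⊓ kline F K w with hP
  by_cases hbig : d + 1 ≤ finrank F ↥P
  · exact ⟨w, z, h, hh, hw, hz, hne, hbig⟩
  have hPd : finrank F ↥P = d := by omega
  have hWr : finrank F ↥W = finrank F K := by
    rw [hW, finrank_umap, finrank_kline hz]
  have hPW : P ≤ W := inf_le_left
  set D : Submodule F K :=
    W.comap ((LinearMap.toSpanSingleton K V w).restrictScalars F) with hD
  have hDmem : ∀ t : K, t ∈ D ↔ t • w ∈ W := fun t => by simp [hD]
  have hD0 : D ≠ ⊥ := by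
    have hpos : 0 < finrank F ↥P := by omega
    obtain ⟨⟨p, hp⟩, hp0⟩ := Module.finrank_pos_iff_exists_ne_zero.mp hpos
    obtain ⟨c, hc⟩ := mem_kline.mp hp.2
    intro hbot
    have hcD : c ∈ D := (hDmem c).mpr (by rw [hc]; exact hp.1)
    rw [hbot, Submodule.mem_bot] at hcD
    apply hp0
    apply Subtype.ext
    simpa [hcD] using hc.symm
  have hD1 : D ≠ ⊤ := by
    intro htop
    apply hne
    have hle : kline F K w ≤ W := by
      intro y hy
      obtain ⟨c, rfl⟩ := mem_kline.mp hy
      exact (hDmem c).mp (by rw [htop]; trivial)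
    apply (Submodule.eq_of_le_of_finrank_eq hle _).symm
    rw [hWr, finrank_kline hw]
  have hPb : ∀ p ∈ P, b p w = 0 := by
    intro p hp
    obtain ⟨c, rfl⟩ := mem_kline.mp hp.2
    simp [hG.alt]
  have hbase : ∀ t : K, t ∉ (algebraMap F K).range → ∃ d₀ ∈ D, t * d₀ ∉ D := by
    intro t ht
    by_contra hc
    push Not at hc
    exact ht (mem_base_of_stable F hr hD0 hD1 hc)
  by_cases hc : ∀ x ∈ W, b x w = 0
  · -- `W ⊆ w^⊥`
    obtain ⟨x₁, hx₁W, hx₁P⟩ : ∃ x ∈ W, x ∉ P := by
      by_contra hc
      push Not at hc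
      have : W ≤ P := hc
      have : finrank F ↥W ≤ finrank F ↥P := Submodule.finrank_mono this
      omega
    have hx₁l : x₁ ∉ kline F K w := fun hl => hx₁P ⟨hx₁W, hl⟩
    obtain ⟨x₂, hx₂W, hx₂P⟩ : ∃ x ∈ W, x ∉ P ⊔ Submodule.span F {x₁} := by
      by_contra hc
      push Not at hc
      have h1 : W ≤ P ⊔ Submodule.span F {x₁} := hc
      have h2 := Submodule.finrank_mono h1
      rw [Submodule.finrank_sup_span_singleton hx₁P] at h2
      omega
    have hx₂l : ∀ s : F, x₂ - s • x₁ ∉ kline F K w := by
      intro s hl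
      apply hx₂P
      have hin : x₂ - s • x₁ ∈ P := ⟨W.sub_mem hx₂W (W.smul_mem s hx₁W), hl⟩
      have : x₂ = (x₂ - s • x₁) + s • x₁ := by abel
      rw [this]
      exact Submodule.add_mem_sup hin (Submodule.smul_mem _ _ (Submodule.mem_span_singleton_self x₁))
    obtain ⟨f, hfw, hfx₁, hfx₂⟩ := exists_sep hr.two_le hx₁l hx₂l
    obtain ⟨w', hw'⟩ := hG.exists_riesz f
    have hww' : b w w' = 0 := by rw [← hw']; exact hfw
    obtain ⟨d₀, hd₀, hd₀'⟩ := hbase _ hfx₂
    have hT := hG.short_isIn (F := F) hww' d₀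
    refine adj_of_R hh hz hPd hT.mem (fun x => d₀ * f x) ?_ ?_ hx₁W hx₂W hx₁P ?_ ?_
    · intro x hx
      simp [sE_apply, hc x hx, hw']
    · intro p hp
      obtain ⟨c, rfl⟩ := mem_kline.mp hp.2
      simp [hfw]
    · rw [hfx₁, mul_one]
      exact (hDmem _).mp hd₀
    · rw [mul_comm]
      exact fun hmem => hd₀' ((hDmem _).mpr hmem)
  · push Not at hc
    obtain ⟨y, hyW, hy⟩ := hc
    have hyP : y ∉ P := fun hyP => hy (hPb y hyP)
    by_cases ht : ∀ x ∈ W, b x w / b y w ∈ (algebraMap F K).range
    · -- one-dimensional image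
      obtain ⟨x, hxW, hxP⟩ : ∃ x ∈ W, x ∉ P ⊔ Submodule.span F {y} := by
        by_contra hc
        push Not at hc
        have h1 : W ≤ P ⊔ Submodule.span F {y} := hc
        have h2 := Submodule.finrank_mono h1
        rw [Submodule.finrank_sup_span_singleton hyP] at h2
        omega
      obtain ⟨s, hs⟩ := ht x hxW
      have hsy : b x w = algebraMap F K s * b y w := by
        rw [hs]
        field_simp
      set x₁ := x - s • y with hx₁
      have hx₁W : x₁ ∈ W := W.sub_mem hxW (W.smul_mem s hyW)
      have hx₁P : x₁ ∉ P := by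
        intro hin
        apply hxP
        have : x = x₁ + s • y := by rw [hx₁]; abel
        rw [this]
        exact Submodule.add_mem_sup hin
          (Submodule.smul_mem _ _ (Submodule.mem_span_singleton_self y))
      have hbx₁ : b x₁ w = 0 := by
        simp only [hx₁, map_sub, LinearMap.sub_apply, LinearMap.map_smul_of_tower,
          LinearMap.smul_apply, hsy]
        rw [Algebra.smul_def]
        ring
      obtain ⟨κ, hκ⟩ : ∃ κ, κ ∉ D := by
        by_contra hc
        push Not at hc
        exact hD1 (eq_top_iff.mpr fun t _ => hc t)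
      have hT := hG.root_isIn (F := F) (κ / b y w) w
      refine adj_of_R hh hz hPd hT.mem (fun u => κ / b y w * b u w) ?_ ?_ hx₁W hyW hx₁P ?_ ?_
      · intro u _
        simp [rE_apply]
      · intro p hp
        simp [hPb p hp]
      · simp [hbx₁]
      · rw [div_mul_cancel₀ _ hy]
        exact fun hmem => hκ ((hDmem _).mpr hmem)
    · -- two independent values
      push Not at ht
      obtain ⟨x, hxW, hxt⟩ := ht
      obtain ⟨d₀, hd₀, hd₀'⟩ := hbase _ hxt
      have hT := hG.root_isIn (F := F) (d₀ / b y w) w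
      refine adj_of_R hh hz hPd hT.mem (fun u => d₀ / b y w * b u w) ?_ ?_ hyW hxW hyP ?_ ?_
      · intro u _
        simp [rE_apply]
      · intro p hp
        simp [hPb p hp]
      · rw [div_mul_cancel₀ _ hy]
        exact (hDmem _).mp hd₀
      · have e : d₀ / b y w * b x w = b x w / b y w * d₀ := by
          field_simp
        rw [e]
        exact fun hmem => hd₀' ((hDmem _).mpr hmem)

/-- Iterating the adjacency step. -/
theorem SpG.adj_final [FiniteDimensional F K] [FiniteDimensional K V] (hG : SpG b M)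
    (hr : (finrank F K).Prime) (h1 : Adj K M 1) : Adj K M (finrank F K - 1) := by
  have h2 := hr.two_le
  obtain ⟨k, hk⟩ : ∃ k, finrank F K = k + 2 := ⟨finrank F K - 2, by omega⟩
  rw [hk]
  have hind : ∀ j, j ≤ k → Adj K M (j + 1) := by
    intro j
    induction j with
    | zero => intro _; simpa using h1
    | succ j ih =>
      intro hj
      exact hG.adj_step hr (by omega) (by omega) (ih (by omega))
  have := hind k le_rfl
  simpa using this

end

end Cfsg.Agent.Lib.Classical.Spread
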