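import Mathlib
import Cfsg.Agent.Lib.Classical.Spread.SpAdj

/-!
# The root family at the image of a `K`-line, and the commutators with root elements
-/

set_option autoImplicit false

namespace Cfsg.Agent.Lib.Classical.Spread

open Module

variable {F K V : Type*} [Field F] [Field K] [Algebra F K] [AddCommGroup V] [Module F V]
  [Module K V] [IsScalarTower F K V]

/-- The root family at `h (K z)`. -/
noncomputable def rt (F : Type*) {K V : Type*} [Field F] [Field K] [Algebra F K] [AddCommGroup V]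
    [Module F V] [Module K V] [IsScalarTower F K V] (b : V →ₗ[K] V →ₗ[K] K)
    (h : (Module.End F V)ˣ) (z : V) (c : K) : Module.End F V :=
  h.val * rE F b c z * (h⁻¹ : (Module.End F V)ˣ).val

theorem rt_apply (b : V →ₗ[K] V →ₗ[K] K) (h : (Module.End F V)ˣ) (z : V) (c : K) (x : V) :
    rt F b h z c x = h.val ((c * b ((h⁻¹ : (Module.End F V)ˣ).val x) z) • z) := rfl

section
variable {b : V →ₗ[K] V →ₗ[K] K} {M : Subgroup (Module.End F V)ˣ} {h : (Module.End F V)ˣ} {z : V}

theorem SpG.rt_isIn (hG : SpG b M) (hh : h ∈ M) (z : V) (c : K) : IsIn M (rt F b h z c) :=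
  isIn_conj (hG.root_isIn c z) h hh

/-- The adjunction for `h`. -/
theorem SpG.tr_adj (hG : SpG b M) (hh : h ∈ M) (x y : V) :
    Algebra.trace F K (b ((h⁻¹ : (Module.End F V)ˣ).val x) y)
      = Algebra.trace F K (b x (h.val y)) := by
  have := hG.iso h hh ((h⁻¹ : (Module.End F V)ˣ).val x) y
  rw [apply_inv_apply] at this
  exact this.symm

/-- The family vanishes on the orthogonal of `h (K z)`. -/
theorem SpG.rt_perp [FiniteDimensional F K] [Algebra.IsSeparable F K] (hG : SpG b M) (hh : h ∈ M)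
    (c : K) {x : V} (hx : ∀ t : K, Algebra.trace F K (b x (h.val (t • z))) = 0) :
    rt F b h z c x = 0 := by
  have h0 : b ((h⁻¹ : (Module.End F V)ˣ).val x) z = 0 := by
    apply tr_nd (F := F)
    intro t
    have h1 := hG.tr_adj hh x (t • z)
    rw [hx t, map_smul, smul_eq_mul] at h1
    exact h1
  rw [rt_apply, h0]
  simp

/-- The family is symmetric. -/
theorem SpG.rt_symm (hG : SpG b M) (hh : h ∈ M) (c : K) (x y : V) :
    Algebra.trace F K (b (rt F b h z c x) y) = Algebra.trace F K (b (rt F b h z c y) x) := by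
  have key : ∀ x y : V, Algebra.trace F K (b (rt F b h z c x) y)
      = - Algebra.trace F K (c * b ((h⁻¹ : (Module.End F V)ˣ).val x) z
          * b ((h⁻¹ : (Module.End F V)ˣ).val y) z) := by
    intro x y
    rw [hG.tr_skew, rt_apply, ← hG.tr_adj hh, map_smul, smul_eq_mul]
  rw [key, key]
  congr 2
  ring

/-- The family is surjective onto `h (K z)`. -/
theorem SpG.rt_surj (hG : SpG b M) (hh : h ∈ M) {x₀ : V}
    (hx₀ : ∃ t : K, Algebra.trace F K (b x₀ (h.val (t • z))) ≠ 0) (t : K) :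
    ∃ c, rt F b h z c x₀ = h.val (t • z) := by
  have h0 : b ((h⁻¹ : (Module.End F V)ˣ).val x₀) z ≠ 0 := by
    intro h0
    obtain ⟨t', ht'⟩ := hx₀
    apply ht'
    rw [← hG.tr_adj hh, map_smul, smul_eq_mul, h0, mul_zero, map_zero]
  refine ⟨t / b ((h⁻¹ : (Module.End F V)ˣ).val x₀) z, ?_⟩
  rw [rt_apply, div_mul_cancel₀ _ h0]

/-- A value of `b (β x) q`, from the symmetry of the family. -/
theorem SpG.rt_value [FiniteDimensional F K] [Algebra.IsSeparable F K] (hG : SpG b M) (hh : h ∈ M)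
    {c l₀ : K} {q e : V}
    (hq : ∀ t : K, rt F b h z c (t • q) = Algebra.trace F K (l₀ * t) • e) (x : V) :
    b (rt F b h z c x) q = l₀ * algebraMap F K (Algebra.trace F K (b e x)) := by
  rw [← sub_eq_zero]
  apply tr_nd (F := F)
  intro t
  have h1 := hG.rt_symm hh (z := z) c x (t • q)
  have e1 : b (Algebra.trace F K (l₀ * t) • e) x = Algebra.trace F K (l₀ * t) • b e x := by
    rw [LinearMap.map_smul_of_tower]
    rfl
  rw [hq t, e1, map_smul, smul_eq_mul, map_smul, smul_eq_mul] at h1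
  rw [mul_sub, map_sub, h1, sub_eq_zero]
  have : t * (l₀ * algebraMap F K (Algebra.trace F K (b e x)))
      = Algebra.trace F K (b e x) • (l₀ * t) := by
    rw [Algebra.smul_def]
    ring
  rw [this, map_smul, smul_eq_mul, mul_comm]

/-- The commutator formula. -/
theorem SpG.comm_P (hG : SpG b M) {β η : Module.End F V} (hβ : IsIn M β) (hη : IsIn M η) {a' : K}
    {p e : V} (h1 : ∀ x, β (η x) = Algebra.trace F K (a' * b x p) • e)
    (h2 : ∀ x, η (β x) = Algebra.trace F K (b e x) • (a' • p))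
    (h3 : β (a' • p) = 0) (h4 : η e = 0) : IsIn M (PP F b (a' • p) e) := by
  have hc := isIn_comm hβ hη (by
    ext x
    simp only [Module.End.mul_apply, h2, LinearMap.map_smul_of_tower, h3, LinearMap.zero_apply,
      smul_zero]) (by
    ext x
    simp only [Module.End.mul_apply, h1, LinearMap.map_smul_of_tower, h4, LinearMap.zero_apply,
      smul_zero])
  convert hc using 1
  ext x
  simp only [PP_apply, LinearMap.sub_apply, Module.End.mul_apply, h1, h2, map_smul, smul_eq_mul]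
  rw [hG.tr_skew x e, neg_smul, sub_eq_add_neg]

end

section
variable {b : V →ₗ[K] V →ₗ[K] K} {M : Subgroup (Module.End F V)ˣ}

namespace NF

variable (N : NF F K V M)

include N in
theorem ti (hG : SpG b M) {y y' : V} (hy : y ∈ N.W) (hy' : y' ∈ N.W) :
    Algebra.trace F K (b y y') = 0 := by
  obtain ⟨s, rfl⟩ := N.mem_W_iff.mp hy
  obtain ⟨t, rfl⟩ := N.mem_W_iff.mp hy'
  rw [hG.iso _ N.h_mem]
  simp [hG.alt]

theorem perp (hG : SpG b M) [FiniteDimensional F K] [Algebra.IsSeparable F K] (c : K) {x : V}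
    (hx : ∀ y ∈ N.W, Algebra.trace F K (b x y) = 0) : rt F b N.h N.z c x = 0 :=
  hG.rt_perp N.h_mem c fun t => hx _ (N.mem_W_iff.mpr ⟨t, rfl⟩)

theorem rt_mem (c : K) (x : V) : rt F b N.h N.z c x ∈ N.W :=
  N.mem_W_iff.mpr ⟨_, rfl⟩

theorem exists_rt (hG : SpG b M) {x₀ y₀ e : V} (hy₀ : y₀ ∈ N.W)
    (h0 : Algebra.trace F K (b x₀ y₀) ≠ 0) (he : e ∈ N.W) : ∃ c, rt F b N.h N.z c x₀ = e := by
  obtain ⟨t₀, rfl⟩ := N.mem_W_iff.mp hy₀
  obtain ⟨t, rfl⟩ := N.mem_W_iff.mp he
  exact hG.rt_surj N.h_mem ⟨t₀, h0⟩ t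

theorem v₁_mem' : N.v₁ ∈ N.W := by simpa using (N.D_mem 1).mp N.one_mem

/-- The value on a vector of `W`, in coordinates: a vector with `b` vanishing on the coordinates. -/
theorem tr_W {x : V} (hx1 : ∀ d ∈ N.D, Algebra.trace F K (d * b x N.v₁) = 0)
    (hx2 : Algebra.trace F K (b x N.v₂) = 0) {y : V} (hy : y ∈ N.W) :
    Algebra.trace F K (b x y) = 0 := by
  obtain ⟨t, ht, s, rfl⟩ := N.coord y hy
  have e1 : b x (t • N.v₁ + s • N.v₂) = t * b x N.v₁ + s • b x N.v₂ := by
    rw [map_add, map_smul, LinearMap.map_smul_of_tower, smul_eq_mul]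
  rw [e1, map_add, map_smul, hx1 t ht, hx2]
  simp

theorem bW_v {y v : V} (hy : y ∈ N.W) (h1 : b N.v₁ v = 0) (h2 : b N.v₂ v = 0) : b y v = 0 := by
  obtain ⟨t, _, s, rfl⟩ := N.coord y hy
  simp [h1, h2, LinearMap.map_smul_of_tower]

/-- The `D`-relation `Tr (d b₀) = 0`. -/
theorem tr_D (hG : SpG b M) {d : K} (hd : d ∈ N.D) : Algebra.trace F K (d * b N.v₁ N.v₂) = 0 := by
  have := N.ti hG ((N.D_mem d).mp hd) N.v₂_mem
  simpa using this

theorem π_sub_mem (t : K) : t - N.π t • N.u ∈ N.D := by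
  rw [← N.π_ker]
  simp [N.π_u]

/-- `π` is a trace functional. -/
theorem exists_l₀ [FiniteDimensional F K] [Algebra.IsSeparable F K] :
    ∃ l₀ : K, l₀ ≠ 0 ∧ ∀ t, N.π t = Algebra.trace F K (l₀ * t) := by
  have hne : Algebra.trace F K ≠ 0 := by
    obtain ⟨t, ht⟩ := Algebra.trace_surjective F K 1
    intro h
    rw [h] at ht
    exact zero_ne_one ht
  obtain ⟨f, hf⟩ := exists_functional (V := K) hne N.π
  have hval : ∀ t, N.π t = Algebra.trace F K (f 1 * t) := by
    intro t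
    rw [hf t, mul_comm]
    congr 1
    have : f t = f (t • (1 : K)) := by simp
    rw [this, map_smul, smul_eq_mul]
  refine ⟨f 1, ?_, hval⟩
  intro h0
  have := hval N.u
  rw [N.π_u, h0] at this
  simp at this

/-- If `b₀ ≠ 0` then `u v₁` is not orthogonal to `W`. -/
theorem tr_u [FiniteDimensional F K] [Algebra.IsSeparable F K] (hG : SpG b M)
    (hb₀ : b N.v₁ N.v₂ ≠ 0) : Algebra.trace F K (b (N.u • N.v₁) N.v₂) ≠ 0 := by
  intro h0
  apply hb₀
  apply tr_nd (F := F)
  intro t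
  have h1 := N.tr_D hG (N.π_sub_mem t)
  have h2 : N.u * b N.v₁ N.v₂ = b (N.u • N.v₁) N.v₂ := by simp
  have h3 : (t - N.π t • N.u) * b N.v₁ N.v₂ = t * b N.v₁ N.v₂ - N.π t • (N.u * b N.v₁ N.v₂) := by
    simp only [Algebra.smul_def]
    ring
  rw [h3, map_sub, map_smul, h2, h0, smul_zero, sub_zero] at h1
  exact h1

/-- The family on the line `K v₁`. -/
theorem rt_line [FiniteDimensional F K] [Algebra.IsSeparable F K] (hG : SpG b M) {c : K} {e : V}
    (hc : rt F b N.h N.z c (N.u • N.v₁) = e) (t : K) :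
    rt F b N.h N.z c (t • N.v₁) = N.π t • e := by
  have h0 := N.perp hG c (x := (t - N.π t • N.u) • N.v₁) fun y hy =>
    N.ti hG ((N.D_mem _).mp (N.π_sub_mem t)) hy
  have h1 : t • N.v₁ = (t - N.π t • N.u) • N.v₁ + N.π t • (N.u • N.v₁) := by
    rw [sub_smul, smul_assoc]
    abel
  rw [h1, map_add, h0, zero_add, map_smul, hc]

end NF

end

end Cfsg.Agent.Lib.Classical.Spread
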