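import Mathlib
import Cfsg.Agent.Lib.Classical.Spread.SpRoot

/-!
# The key elements `P(a v₁, v₁)`, from the normal form
-/

set_option autoImplicit false

namespace Cfsg.Agent.Lib.Classical.Spread

open Module

variable {F K V : Type*} [Field F] [Field K] [Algebra F K] [AddCommGroup V] [Module F V]
  [Module K V] [IsScalarTower F K V]

section
variable {b : V →ₗ[K] V →ₗ[K] K} {M : Subgroup (Module.End F V)ˣ}

theorem PP_mul_zero {p q p' q' : V} (h1 : b p' p = 0) (h2 : b q' p = 0) (h3 : b p' q = 0)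
    (h4 : b q' q = 0) : PP F b p q * PP F b p' q' = 0 := by
  ext x
  simp [Module.End.mul_apply, PP_apply, LinearMap.map_smul_of_tower, h1, h2, h3, h4]

namespace NF

variable (N : NF F K V M)

include N in
/-- The case `b₀ = 0`. -/
theorem key_zero [FiniteDimensional F K] [FiniteDimensional K V] [Algebra.IsSeparable F K]
    (hG : SpG b M) (hb₀ : b N.v₁ N.v₂ = 0) (a : K) : IsIn M (PP F b (a • N.v₁) N.v₁) := by
  obtain ⟨f, hf1, hf2⟩ := N.exists_f
  obtain ⟨y₂, hy₂⟩ := hG.exists_riesz f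
  have h12 : b N.v₁ y₂ = 0 := by rw [← hy₂]; exact hf1
  have h22 : b N.v₂ y₂ = 1 := by rw [← hy₂]; exact hf2
  have h21 : b y₂ N.v₂ = -1 := by rw [hG.skew, h22]
  have h11' : b y₂ N.v₁ = 0 := by rw [hG.skew, h12, neg_zero]
  have h21' : b N.v₂ N.v₁ = 0 := by rw [hG.skew, hb₀, neg_zero]
  obtain ⟨t₀, ht₀⟩ := Algebra.trace_surjective F K 1
  have hx₀ : Algebra.trace F K (b (t₀ • y₂) N.v₂) ≠ 0 := by
    simp [h21, ht₀]
  obtain ⟨c, hc⟩ := N.exists_rt hG N.v₂_mem hx₀ N.v₁_mem'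
  have hβin := hG.rt_isIn (F := F) N.h_mem N.z c
  set β := rt F b N.h N.z c with hβ
  have hkill : ∀ t : K, β (t • N.v₁) = 0 := fun t =>
    N.perp hG c fun y hy => N.tr_W (by simp [hG.alt]) (by simp [hb₀]) hy
  have hq : ∀ t : K, β (t • y₂) = Algebra.trace F K (1 * t) • N.v₁ := by
    intro t
    have hb : ∀ w, b (t • y₂ - Algebra.trace F K t • (t₀ • y₂)) w
        = t * b y₂ w - Algebra.trace F K t • (t₀ * b y₂ w) := by
      intro w
      simp only [map_sub, LinearMap.sub_apply, LinearMap.map_smul_of_tower, map_smul,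
        LinearMap.smul_apply, smul_eq_mul]
    have h0 := N.perp hG c (x := t • y₂ - Algebra.trace F K t • (t₀ • y₂)) fun y hy =>
      N.tr_W (by intro d _; rw [hb]; simp [h11']) (by
        rw [hb, h21, map_sub, map_smul]
        simp [ht₀]) hy
    rw [← hβ, map_sub, map_smul β (Algebra.trace F K t), hc, sub_eq_zero] at h0
    rw [h0, one_mul]
  have hval : ∀ x, b (β x) y₂ = 1 * algebraMap F K (Algebra.trace F K (b N.v₁ x)) :=
    fun x => hG.rt_value N.h_mem (z := N.z) (c := c) hq x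
  have hv₁ : ∀ x, b (β x) N.v₁ = 0 := fun x =>
    N.bW_v (N.rt_mem c x) (hG.alt _) h21'
  refine hG.comm_P (a' := a) (p := N.v₁) (e := N.v₁) hβin (hG.short_isIn (F := F) h12 a) ?_ ?_ ?_ ?_
  · intro x
    rw [sE_apply, map_add, hq, hkill, add_zero, one_mul]
  · intro x
    rw [sE_apply, hv₁, hval x]
    simp only [mul_zero, zero_smul, zero_add, one_mul, smul_smul]
    rw [Algebra.algebraMap_eq_smul_one, mul_smul_comm, mul_one, smul_assoc]
  · exact hkill a
  · rw [sE_apply, hG.alt, h12]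
    simp

include N in
/-- The case `b₀ ≠ 0`, given a nonzero vector orthogonal to `v₁, v₂`. -/
theorem key_y [FiniteDimensional F K] [FiniteDimensional K V] [Algebra.IsSeparable F K]
    (hG : SpG b M) (hb₀ : b N.v₁ N.v₂ ≠ 0) {y : V} (hy0 : y ≠ 0) (hy1 : b y N.v₁ = 0)
    (hy2 : b y N.v₂ = 0) (a : K) : IsIn M (PP F b (a • N.v₁) N.v₁) := by
  obtain ⟨l₀, hl₀, hπ⟩ := N.exists_l₀
  have h1y : b N.v₁ y = 0 := by rw [hG.skew, hy1, neg_zero]
  have h2y : b N.v₂ y = 0 := by rw [hG.skew, hy2, neg_zero]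
  obtain ⟨c, hc⟩ := N.exists_rt hG N.v₂_mem (N.tr_u hG hb₀) N.v₁_mem'
  have hβin := hG.rt_isIn (F := F) N.h_mem N.z c
  have hline := N.rt_line hG hc
  set β := rt F b N.h N.z c with hβ
  have hq : ∀ t : K, β (t • N.v₁) = Algebra.trace F K (l₀ * t) • N.v₁ := fun t => by
    rw [hline, hπ]
  have hkill : ∀ t : K, β (t • y) = 0 := fun t =>
    N.perp hG c fun w hw => N.tr_W (by simp [hy1]) (by simp [hy2]) hw
  have hval : ∀ x, b (β x) N.v₁ = l₀ * algebraMap F K (Algebra.trace F K (b N.v₁ x)) :=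
    fun x => hG.rt_value N.h_mem (z := N.z) (c := c) hq x
  have hby : ∀ x, b (β x) y = 0 := fun x => N.bW_v (N.rt_mem c x) h1y h2y
  -- the elements `P(y, v₁)`
  have hP : IsIn M (PP F b y N.v₁) := by
    have := hG.comm_P (a' := l₀⁻¹ * l₀) (p := y) (e := N.v₁) hβin
      (hG.short_isIn (F := F) hy1 l₀⁻¹) (by
        intro x
        rw [sE_apply, map_add, hq, hkill, add_zero]
        congr 2
        ring) (by
        intro x
        rw [sE_apply, hby, hval x]
        simp only [mul_zero, zero_smul, zero_add]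
        rw [Algebra.algebraMap_eq_smul_one, mul_smul_comm, mul_one, mul_smul_comm, smul_assoc]) (by
        exact hkill _) (by
        rw [sE_apply, h1y, hG.alt]
        simp)
    rwa [inv_mul_cancel₀ hl₀, one_smul] at this
  -- a `K`-transvection moving `y` to `y + a v₁`
  have hyn : y ∉ Submodule.span K {N.v₁} := by
    intro hmem
    obtain ⟨t, rfl⟩ := Submodule.mem_span_singleton.mp hmem
    apply hy0
    have h21 : b N.v₂ N.v₁ ≠ 0 := by
      rw [hG.skew]
      exact neg_ne_zero.mpr hb₀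
    have : t * b N.v₂ N.v₁ = 0 := by simpa using h2y
    rw [(mul_eq_zero.mp this).resolve_right h21, zero_smul]
  obtain ⟨g, hg, hg'⟩ := exists_func _ hyn (1 : K)
  obtain ⟨y', hy'⟩ := hG.exists_riesz g
  have h1y' : b N.v₁ y' = 0 := by
    rw [← hy']
    exact hg _ (Submodule.mem_span_singleton_self _)
  have hyy' : b y y' = 1 := by rw [← hy', hg']
  have hT := hG.short_isIn (F := F) h1y' a
  have hconj := hG.conj_P hT.mem hP
  have e1 : (sqU (sE F b a N.v₁ y') hT.sq).val y = y + a • N.v₁ := by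
    simp [sE_apply, hy1, hyy']
  have e2 : (sqU (sE F b a N.v₁ y') hT.sq).val N.v₁ = N.v₁ := by
    simp [sE_apply, hG.alt, h1y']
  rw [e1, e2] at hconj
  have h1y1 : b (y + a • N.v₁) N.v₁ = 0 := by simp [hy1, hG.alt]
  have h1y2 : b (y + a • N.v₁) y = 0 := by simp [hG.alt, h1y]
  have h1y3 : b y (y + a • N.v₁) = 0 := by simp [hG.alt, hy1]
  have h1y4 : b N.v₁ (y + a • N.v₁) = 0 := by simp [hG.alt, h1y]
  have hsub := isIn_sub hconj hP
    (PP_mul_zero h1y3 h1y4 hy1 (hG.alt _)) (PP_mul_zero h1y2 h1y h1y1 (hG.alt _))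
  convert hsub using 1
  ext x
  simp only [PP_apply, LinearMap.sub_apply, map_add, map_smul, smul_eq_mul, add_smul, smul_add]
  abel

include N in
/-- The elements `P(a v₁, d v₁)`, `a, d ∈ D`, when `b₀ ≠ 0`. -/
theorem key_DD [FiniteDimensional F K] [Algebra.IsSeparable F K]
    (hG : SpG b M) (hb₀ : b N.v₁ N.v₂ ≠ 0) {a d : K} (ha : a ∈ N.D) (hd : d ∈ N.D) :
    IsIn M (PP F b (a • N.v₁) (d • N.v₁)) := by
  obtain ⟨l₀, hl₀, hπ⟩ := N.exists_l₀
  obtain ⟨c, hc⟩ := N.exists_rt hG N.v₂_mem (N.tr_u hG hb₀) ((N.D_mem d).mp hd)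
  have hβin := hG.rt_isIn (F := F) N.h_mem N.z c
  have hline := N.rt_line hG hc
  set β := rt F b N.h N.z c with hβ
  have hq : ∀ t : K, β (t • N.v₁) = Algebra.trace F K (l₀ * t) • (d • N.v₁) := fun t => by
    rw [hline, hπ]
  have hval : ∀ x, b (β x) N.v₁ = l₀ * algebraMap F K (Algebra.trace F K (b (d • N.v₁) x)) :=
    fun x => hG.rt_value N.h_mem (z := N.z) (c := c) hq x
  refine hG.comm_P (a' := a) (p := N.v₁) (e := d • N.v₁) hβin
    (hG.root_isIn (F := F) (l₀⁻¹ * a) N.v₁) ?_ ?_ ?_ ?_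
  · intro x
    rw [rE_apply, hq]
    congr 2
    field_simp
  · intro x
    rw [rE_apply, hval x]
    rw [Algebra.algebraMap_eq_smul_one, mul_smul_comm, mul_one, mul_smul_comm, smul_assoc]
    congr 2
    field_simp
  · rw [hline, (N.π_ker a).mpr ha, zero_smul]
  · rw [rE_apply]
    simp [hG.alt]

end NF

end

end Cfsg.Agent.Lib.Classical.Spread
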