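import Mathlib
import Cfsg.Agent.Lib.Classical.Spread.SpKey
import Cfsg.Agent.Lib.Classical.Spread.Odd

/-!
# From the key elements to the symplectic transvections
-/

set_option autoImplicit false

namespace Cfsg.Agent.Lib.Classical.Spread

open Module

variable {F K V : Type*} [Field F] [Field K] [Algebra F K] [AddCommGroup V] [Module F V]
  [Module K V] [IsScalarTower F K V]

section
variable {b : V →ₗ[K] V →ₗ[K] K} {M : Subgroup (Module.End F V)ˣ}

namespace NF

variable (N : NF F K V M)

include N in
/-- The key elements. -/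
theorem key_all [FiniteDimensional F K] [FiniteDimensional K V] [Algebra.IsSeparable F K]
    (hG : SpG b M) (hdim : finrank F K = 2 → 3 ≤ finrank K V) (hr : 2 ≤ finrank F K) (a : K) :
    IsIn M (PP F b (a • N.v₁) N.v₁) := by
  classical
  by_cases hb₀ : b N.v₁ N.v₂ = 0
  · exact N.key_zero hG hb₀ a
  by_cases hr3 : 3 ≤ finrank F K
  · -- `r ≥ 3`
    let φ : K →ₗ[F] F × F := N.π.prod (N.π.comp (LinearMap.mulRight F a))
    have hker : LinearMap.ker φ ≠ ⊥ := by
      apply LinearMap.ker_ne_bot_of_finrank_lt
      simp only [Module.finrank_prod, Module.finrank_self]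
      omega
    obtain ⟨c, hc, hc0⟩ := Submodule.exists_mem_ne_zero_of_ne_bot hker
    have hc1 : N.π c = 0 := congrArg Prod.fst (LinearMap.mem_ker.mp hc)
    have hc2 : N.π (c * a) = 0 := congrArg Prod.snd (LinearMap.mem_ker.mp hc)
    have hP := N.key_DD hG hb₀ ((N.π_ker _).mp hc2) ((N.π_ker _).mp hc1)
    obtain ⟨g, hg, hgv⟩ := hG.exists_isom (v := N.v₁) (v' := c⁻¹ • N.v₁) N.v₁_ne
      (smul_ne_zero (inv_ne_zero hc0) N.v₁_ne)
    have hconj := hG.conj_P (hG.gU_mem (F := F) g hg) hP
    simp only [gU_apply, map_smul, hgv, smul_smul] at hconj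
    have e1 : c * a * c⁻¹ = a := by field_simp
    have e2 : c * c⁻¹ = 1 := mul_inv_cancel₀ hc0
    rwa [e1, e2, one_smul] at hconj
  · -- `r = 2`
    have hr2 : finrank F K = 2 := by omega
    have hd := hdim hr2
    let φ : V →ₗ[K] K × K := (b.flip N.v₁).prod (b.flip N.v₂)
    have hker : LinearMap.ker φ ≠ ⊥ := by
      apply LinearMap.ker_ne_bot_of_finrank_lt
      simp only [Module.finrank_prod, Module.finrank_self]
      omega
    obtain ⟨y, hy, hy0⟩ := Submodule.exists_mem_ne_zero_of_ne_bot hker
    have hy1 : b y N.v₁ = 0 := congrArg Prod.fst (LinearMap.mem_ker.mp hy)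
    have hy2 : b y N.v₂ = 0 := congrArg Prod.snd (LinearMap.mem_ker.mp hy)
    exact N.key_y hG hb₀ hy0 hy1 hy2 a

end NF

/-- A sum with symmetric coefficients and zero diagonal. -/
theorem alt_sum_mem {A : Type*} [AddCommGroup A] [Module F A] {Q : A → Prop} (h0 : Q 0)
    (hadd : ∀ X Y, Q X → Q Y → Q (X + Y)) {ι : Type*} [Fintype ι] [DecidableEq ι] (E : ι → ι → A)
    (S : ι → ι → F) (hS : ∀ i j, S i j = S j i) (hd : ∀ i, S i i = 0)
    (hE : ∀ i j, Q (S i j • (E i j + E j i))) : Q (∑ i, ∑ j, S i j • E i j) := by
  have key : ∀ T : Finset ι, Q (∑ i ∈ T, ∑ j ∈ T, S i j • E i j) := by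
    intro T
    induction T using Finset.induction_on with
    | empty => simpa using h0
    | insert k T hk ih =>
      have e : ∑ i ∈ insert k T, ∑ j ∈ insert k T, S i j • E i j
          = ∑ j ∈ T, S k j • (E k j + E j k) + ∑ i ∈ T, ∑ j ∈ T, S i j • E i j := by
        rw [Finset.sum_insert hk]
        simp only [Finset.sum_insert hk, hd, zero_smul, zero_add, Finset.sum_add_distrib, smul_add]
        rw [← add_assoc]
        congr 2
        exact Finset.sum_congr rfl fun j _ => by rw [hS]
      rw [e]
      refine hadd _ _ ?_ ih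
      exact Finset.sum_induction _ Q hadd h0 fun j _ => hE k j
  simpa using key Finset.univ

section Trace2
variable [Finite F] [FiniteDimensional F K]

/-- `Tr (y²) = Tr (y)²` in characteristic two. -/
theorem trace_sq (h2 : (2 : F) = 0) (y : K) :
    Algebra.trace F K (y * y) = Algebra.trace F K y * Algebra.trace F K y := by
  have h2K : (2 : K) = 0 := by
    rw [← map_ofNat (algebraMap F K) 2, h2, map_zero]
  have hsum : ∀ (s : Finset ℕ) (g : ℕ → K), (∑ i ∈ s, g i) * (∑ i ∈ s, g i) = ∑ i ∈ s, g i * g i := by
    intro s g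
    classical
    induction s using Finset.induction_on with
    | empty => simp
    | insert k s hk ih =>
      rw [Finset.sum_insert hk, Finset.sum_insert hk, ← ih]
      linear_combination (g k * ∑ i ∈ s, g i) * h2K
  have : Finite K := Module.finite_of_finite F
  apply (algebraMap F K).injective
  rw [map_mul (algebraMap F K), FiniteField.algebraMap_trace_eq_sum_pow,
    FiniteField.algebraMap_trace_eq_sum_pow, hsum]
  exact Finset.sum_congr rfl fun i _ => mul_pow _ _ _

end Trace2

/-- The rank-two maps on `K`. -/
noncomputable def Xp (F : Type*) {K : Type*} [Field F] [Field K] [Algebra F K] (x y : K) :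
    K →ₗ[F] K :=
  ((Algebra.trace F K).comp (LinearMap.mulLeft F x)).smulRight y
    + ((Algebra.trace F K).comp (LinearMap.mulLeft F y)).smulRight x

theorem Xp_apply (x y t : K) :
    Xp F x y t = Algebra.trace F K (x * t) • y + Algebra.trace F K (y * t) • x := rfl

/-- In characteristic two, `t ↦ Tr t + t` is in the span of the `Xp`. -/
theorem tr_add_id_mem [Finite F] [FiniteDimensional F K] [Algebra.IsSeparable F K]
    (h2 : (2 : F) = 0) {Q : (K →ₗ[F] K) → Prop} (h0 : Q 0)
    (hadd : ∀ X Y, Q X → Q Y → Q (X + Y)) (hX : ∀ x y : K, Q (Xp F x y)) :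
    Q (((Algebra.trace F K).smulRight (1 : K)) + LinearMap.id) := by
  classical
  have hB := traceForm_nondegenerate F K
  set B := Algebra.traceForm F K with hBdef
  have hBapp : ∀ x y, B x y = Algebra.trace F K (x * y) := fun x y => rfl
  let e := Module.finBasis F K
  let e' := B.dualBasis hB e
  have h2K : (2 : K) = 0 := by
    rw [← map_ofNat (algebraMap F K) 2, h2, map_zero]
  have hexp : ∀ z : K, ∑ i, Algebra.trace F K (e i * z) • e' i = z := by
    intro z
    conv_rhs => rw [← e'.sum_repr z]
    apply Finset.sum_congr rfl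
    intro i _
    rw [LinearMap.BilinForm.dualBasis_repr_apply, hBapp, mul_comm]
  set X : K →ₗ[F] K := ((Algebra.trace F K).smulRight (1 : K)) + LinearMap.id with hXdef
  have hXapp : ∀ t, X t = Algebra.trace F K t • (1 : K) + t := fun t => rfl
  set S : Fin (finrank F K) → Fin (finrank F K) → F :=
    fun i j => Algebra.trace F K (e i) * Algebra.trace F K (e j) + Algebra.trace F K (e i * e j)
    with hS
  have hSs : ∀ i j, S i j = S j i := by
    intro i j
    simp only [hS, mul_comm]
  have hSd : ∀ i, S i i = 0 := by
    intro i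
    simp only [hS, trace_sq h2]
    linear_combination (Algebra.trace F K (e i) * Algebra.trace F K (e i)) * h2
  let E : Fin (finrank F K) → Fin (finrank F K) → (K →ₗ[F] K) := fun i j =>
    ((Algebra.trace F K).comp (LinearMap.mulLeft F (e' j))).smulRight (e' i)
  have hEapp : ∀ i j t, E i j t = Algebra.trace F K (e' j * t) • e' i := fun _ _ _ => rfl
  have hsum : X = ∑ i, ∑ j, S i j • E i j := by
    ext t
    simp only [LinearMap.sum_apply, LinearMap.smul_apply, hEapp]
    conv_lhs => rw [← hexp (X t)]
    apply Finset.sum_congr rfl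
    intro i _
    have h1 : Algebra.trace F K (e i * X t) = ∑ j, S i j * Algebra.trace F K (e' j * t) := by
      have h3 : Algebra.trace F K (e i * X t) = Algebra.trace F K (X (e i) * t) := by
        simp only [hXapp, Algebra.smul_def, mul_one, mul_add, add_mul, map_add]
        have e1 : Algebra.trace F K (e i * algebraMap F K (Algebra.trace F K t))
            = Algebra.trace F K (e i) * Algebra.trace F K t := by
          rw [mul_comm, ← Algebra.smul_def, map_smul, smul_eq_mul, mul_comm]
        have e2 : Algebra.trace F K (algebraMap F K (Algebra.trace F K (e i)) * t)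
            = Algebra.trace F K (e i) * Algebra.trace F K t := by
          rw [← Algebra.smul_def, map_smul, smul_eq_mul]
        rw [e1, e2]
      rw [h3]
      conv_lhs => rw [← hexp (X (e i))]
      rw [Finset.sum_mul, map_sum]
      apply Finset.sum_congr rfl
      intro j _
      have h4 : Algebra.trace F K (e j * X (e i)) = S i j := by
        simp only [hXapp, hS, Algebra.smul_def, mul_one, mul_add, map_add]
        have e1 : Algebra.trace F K (e j * algebraMap F K (Algebra.trace F K (e i)))
            = Algebra.trace F K (e i) * Algebra.trace F K (e j) := by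
          rw [mul_comm, ← Algebra.smul_def, map_smul, smul_eq_mul]
        rw [e1, mul_comm (e j)]
      rw [h4, smul_mul_assoc, map_smul, smul_eq_mul]
    rw [h1, Finset.sum_smul]
    apply Finset.sum_congr rfl
    intro j _
    rw [mul_smul]
  rw [hsum]
  refine alt_sum_mem (F := F) h0 hadd E S hSs hSd fun i j => ?_
  have : S i j • (E i j + E j i) = Xp F (S i j • e' j) (e' i) := by
    ext t
    simp only [LinearMap.smul_apply, LinearMap.add_apply, hEapp, Xp_apply, smul_add, smul_mul_assoc,
      map_smul, smul_eq_mul]
    rw [mul_smul, smul_comm (S i j), smul_comm (S i j)]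
  rw [this]
  exact hX _ _

/-- From the key elements to a transvection. -/
theorem SpG.T_of_key [Finite F] [FiniteDimensional F K] [FiniteDimensional K V]
    [Algebra.IsSeparable F K] (hG : SpG b M) {v : V} (hv : v ≠ 0)
    (hkey : ∀ a : K, IsIn M (PP F b (a • v) v)) : ∃ s : F, s ≠ 0 ∧ IsIn M (TT F b v s) := by
  by_cases h2 : (2 : F) = 0
  · refine ⟨1, one_ne_zero, ?_⟩
    have hP : ∀ x y : K, IsIn M (PP F b (x • v) (y • v)) := by
      intro x y
      by_cases hy : y = 0
      · subst hy
        convert isIn_zero M using 1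
        ext t
        simp [PP_apply]
      · obtain ⟨g, hg, hgv⟩ := hG.exists_isom hv (smul_ne_zero hy hv)
        have := hG.conj_P (hG.gU_mem (F := F) g hg) (hkey (x / y))
        simp only [gU_apply, map_smul, hgv, smul_smul] at this
        rwa [div_mul_cancel₀ _ hy] at this
    have hw : b.flip v v = 0 := hG.alt v
    have hQ := tr_add_id_mem (F := F) (K := K) h2 (Q := fun X => IsIn M (θ (b.flip v) v X))
      isQ_zero (fun X Y hX hY => isQ_add hw hX hY) (fun x y => by
        convert hP x y using 1
        ext z
        simp only [θ_apply, Xp_apply, LinearMap.flip_apply, PP_apply, map_smul, smul_eq_mul,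
          add_smul, smul_assoc])
    have hL : IsIn M (θ (b.flip v) v (LinearMap.id : K →ₗ[F] K)) := by
      convert hG.root_isIn (F := F) 1 v using 1
      ext z
      simp [rE_apply]
    have := isQ_add hw hQ hL
    convert this using 1
    ext z
    have h2K : (2 : K) = 0 := by
      rw [← map_ofNat (algebraMap F K) 2, h2, map_zero]
    have e : Algebra.trace F K (b z v) • (1 : K) + b z v + b z v
        = algebraMap F K (Algebra.trace F K (b z v)) := by
      rw [Algebra.algebraMap_eq_smul_one]
      linear_combination (b z v) * h2K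
    simp only [TT_apply, one_mul, θ_apply, LinearMap.add_apply, LinearMap.smulRight_apply,
      LinearMap.id_apply, LinearMap.flip_apply]
    rw [e, algebraMap_smul]
  · refine ⟨2, h2, ?_⟩
    convert hkey 1 using 1
    ext x
    simp [TT_apply, PP_apply, two_mul, add_smul]

/-- From one transvection to all. -/
theorem SpG.all_T [Finite F] [FiniteDimensional K V] (hG : SpG b M) {v : V} (hv : v ≠ 0) {s : F}
    (hs : s ≠ 0) (hin : IsIn M (TT F b v s)) (w : V) (c : F) : IsIn M (TT F b w c) := by
  by_cases hw : w = 0
  · subst hw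
    convert isIn_zero M using 1
    ext t
    simp [TT_apply]
  have hmul : ∀ c d : F, TT F b w c * TT F b w d = 0 := by
    intro c d
    ext x
    simp [Module.End.mul_apply, TT_apply, LinearMap.map_smul_of_tower, hG.alt]
  have hadd : ∀ c d : F, IsIn M (TT F b w c) → IsIn M (TT F b w d) → IsIn M (TT F b w (c + d)) := by
    intro c d hc hd
    convert isIn_add hc hd (hmul c d) (hmul d c) using 1
    ext x
    simp [TT_apply, add_mul, add_smul]
  have hneg : ∀ c : F, IsIn M (TT F b w c) → IsIn M (TT F b w (-c)) := by
    intro c hc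
    convert isIn_neg hc using 1
    ext x
    simp [TT_apply]
  have hsq : ∀ l : F, IsIn M (TT F b w (l * l * s)) := by
    intro l
    by_cases hl : l = 0
    · subst hl
      convert isIn_zero M using 1
      ext t
      simp [TT_apply]
    · obtain ⟨g, hg, hgv⟩ := hG.exists_isom hv (smul_ne_zero hl hw)
      have := hG.conj_T (hG.gU_mem (F := F) g hg) hin
      rw [gU_apply, hgv] at this
      convert this using 1
      ext x
      simp only [TT_apply, LinearMap.map_smul_of_tower, map_smul, smul_eq_mul, smul_smul]
      congr 1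
      ring
  by_cases h2 : (2 : F) = 0
  · have hinj : Function.Injective (fun x : F => x * x) := by
      intro x y hxy
      have hxy' : x * x = y * y := hxy
      have : (x - y) * (x - y) = 0 := by
        linear_combination hxy' + (y * y - x * y) * h2
      have h3 := mul_self_eq_zero.mp this
      exact sub_eq_zero.mp h3
    obtain ⟨l, hl⟩ := (Finite.injective_iff_surjective.mp hinj) (c / s)
    have hl' : l * l = c / s := hl
    have := hsq l
    rwa [hl', div_mul_cancel₀ _ hs] at this
  · set d := c / s with hd
    have hh := hadd _ _ (hsq ((d + 1) / 2)) (hneg _ (hsq ((d - 1) / 2)))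
    have e : (d + 1) / 2 * ((d + 1) / 2) * s + -((d - 1) / 2 * ((d - 1) / 2) * s) = c := by
      have : c = d * s := by rw [hd, div_mul_cancel₀ _ hs]
      rw [this]
      field_simp
      ring
    rwa [e] at hh

/-- **The core theorem for symplectic forms.** -/
theorem SpG.core [Finite F] [FiniteDimensional F K] [FiniteDimensional K V]
    [Algebra.IsSeparable F K] (hG : SpG b M) (hr : (finrank F K).Prime)
    (hdim : finrank F K = 2 → 3 ≤ finrank K V) {g : (Module.End F V)ˣ} (hg : g ∈ M) {v : V}
    (hv : v ≠ 0) {κ : K} (hκ : g.val (κ • v) ∉ kline F K (g.val v)) (w : V) (c : F) :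
    IsIn M (TT F b w c) := by
  obtain ⟨N⟩ := exists_nf hr.two_le (hG.adj_final hr (adj_start hg hv hκ))
  obtain ⟨s, hs, hin⟩ := hG.T_of_key N.v₁_ne (N.key_all hG hdim hr.two_le)
  exact hG.all_T N.v₁_ne hs hin w c

end

end Cfsg.Agent.Lib.Classical.Spread
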