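import Mathlib
import Cfsg.Prelude.Def_GeometricClasses
import Cfsg.Agent.Lib.Classical.Spread.SpEnd
import Cfsg.Agent.Lib.Classical.Spread.Transfer

/-!
# Transport of the symplectic core theorem to matrices
-/

set_option autoImplicit false

open Matrix Module

namespace Cfsg.Agent.Lib.Classical.Spread

section TransferI
variable {F : Type*} [Field F] {I : Type} [Fintype I] [DecidableEq I]

/-- The passage from matrices to endomorphisms. -/
noncomputable def toUI : GL I F ≃* (Module.End F (I → F))ˣ :=
  Units.mapEquiv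
    (Matrix.toLinAlgEquiv' : Matrix I I F ≃ₐ[F]
      Module.End F (I → F)).toRingEquiv.toMulEquiv

theorem toUI_apply (g : GL I F) (x : I → F) :
    ((toUI g : (Module.End F (I → F))ˣ) : Module.End F (I → F)) x
      = (g : Matrix I I F).mulVec x := rfl

theorem toUI_inv_apply (g : GL I F) (x : I → F) :
    (((toUI g)⁻¹ : (Module.End F (I → F))ˣ) : Module.End F (I → F)) x
      = ((g⁻¹ : GL I F) : Matrix I I F).mulVec x := by
  rw [← map_inv]; rfl

variable {K' : Type*} [Field K'] [Algebra F K'] [Module K' (I → F)]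
  [IsScalarTower F K' (I → F)] (ι : K' →ₐ[F] Matrix I I F)

theorem memN_of_comm {g : GL I F}
    (h : ∀ a : K', (g : Matrix I I F) * ι a = ι a * (g : Matrix I I F)) :
    g ∈ Cfsg.Geo.subalgebraNormalizer ι.range := by
  intro k
  have h1 : (g : Matrix I I F) * ((g⁻¹ : GL I F) : Matrix I I F) = 1 :=
    by rw [← Units.val_mul, mul_inv_cancel, Units.val_one]
  have h2 : ((g⁻¹ : GL I F) : Matrix I I F) * (g : Matrix I I F) = 1 :=
    by rw [← Units.val_mul, inv_mul_cancel, Units.val_one]
  constructor
  · rintro ⟨a, rfl⟩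
    refine ⟨a, ?_⟩
    change ι a = (g : Matrix I I F) * ι a * ((g⁻¹ : GL I F) : Matrix I I F)
    rw [h a, mul_assoc, h1, mul_one]
  · rintro ⟨a, ha⟩
    refine ⟨a, ?_⟩
    change ι a = k
    change ι a = _ at ha
    have h3 : (g : Matrix I I F) * k = ι a * (g : Matrix I I F) := by
      rw [ha, mul_assoc, h2, mul_one]
    have h4 : (g : Matrix I I F) * k = (g : Matrix I I F) * ι a := by
      rw [h3, h a]
    have := congrArg (fun m => ((g⁻¹ : GL I F) : Matrix I I F) * m) h4
    simpa [← mul_assoc, h2] using this.symm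

variable {ι}

theorem memN_of_linear (hι : ∀ (k : K') (x : I → F), k • x = (ι k).mulVec x) {g : GL I F}
    (h : ∀ (a : K') (x : I → F),
      ((toUI g : (Module.End F (I → F))ˣ) : Module.End F (I → F)) (a • x)
        = a • ((toUI g : (Module.End F (I → F))ˣ) : Module.End F (I → F)) x) :
    g ∈ Cfsg.Geo.subalgebraNormalizer ι.range := by
  apply memN_of_comm
  intro a
  apply Matrix.toLin'.injective
  apply LinearMap.ext
  intro x
  have := h a x
  rw [toUI_apply, toUI_apply, hι, hι] at this
  simpa only [Matrix.toLin'_apply, ← Matrix.mulVec_mulVec] using this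

/-- An element of the normaliser maps `K`-lines to `K`-lines. -/
theorem line_of_memN (hι : ∀ (k : K') (x : I → F), k • x = (ι k).mulVec x) {g : GL I F}
    (hg : g ∈ Cfsg.Geo.subalgebraNormalizer ι.range) (κ : K') (x : I → F) :
    ((toUI g : (Module.End F (I → F))ˣ) : Module.End F (I → F)) (κ • x)
      ∈ kline F K' (((toUI g : (Module.End F (I → F))ˣ) : Module.End F (I → F)) x) := by
  obtain ⟨κ', hκ'⟩ := (hg (ι κ)).mp ⟨κ, rfl⟩
  have hκ'' : ι κ' = (g : Matrix I I F) * ι κ *
      ((g⁻¹ : GL I F) : Matrix I I F) := hκ'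
  have h2 : ((g⁻¹ : GL I F) : Matrix I I F) * (g : Matrix I I F) = 1 :=
    by rw [← Units.val_mul, inv_mul_cancel, Units.val_one]
  have h3 : (g : Matrix I I F) * ι κ = ι κ' * (g : Matrix I I F) := by
    rw [hκ'', mul_assoc _ _ (g : Matrix I I F), h2, mul_one]
  apply mem_kline.mpr
  refine ⟨κ', ?_⟩
  rw [toUI_apply, toUI_apply, hι, hι, Matrix.mulVec_mulVec, Matrix.mulVec_mulVec, h3]

/-- A map sending `K`-lines to `K`-lines lies in the normaliser. -/
theorem memN_of_line [FiniteDimensional F K'] [FiniteDimensional K' (I → F)] [Finite F]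
    (hι : ∀ (k : K') (x : I → F), k • x = (ι k).mulVec x) (hm : 2 ≤ finrank K' (I → F))
    {g : GL I F}
    (h : ∀ (κ : K') (v : I → F),
      ((toUI g : (Module.End F (I → F))ˣ) : Module.End F (I → F)) (κ • v)
        ∈ kline F K' (((toUI g : (Module.End F (I → F))ˣ) : Module.End F (I → F)) v)) :
    g ∈ Cfsg.Geo.subalgebraNormalizer ι.range := by
  have hfin : Finite K' := Module.finite_of_finite F
  set u := toUI g with hu
  have h1 : (g : Matrix I I F) * ((g⁻¹ : GL I F) : Matrix I I F) = 1 :=
    by rw [← Units.val_mul, mul_inv_cancel, Units.val_one]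
  have h2 : ((g⁻¹ : GL I F) : Matrix I I F) * (g : Matrix I I F) = 1 :=
    by rw [← Units.val_mul, inv_mul_cancel, Units.val_one]
  -- conjugation maps `K` into `K`
  have hconj : ∀ κ : K', ∃ c : K', (g : Matrix I I F) * ι κ *
      ((g⁻¹ : GL I F) : Matrix I I F) = ι c := by
    intro κ
    obtain ⟨c, hc⟩ := scalar_of_line (K := K') hm
      (τ := fun x => u.val (κ • (u⁻¹ : (Module.End F (I → F))ˣ).val x))
      (fun x y => by simp only [map_add, smul_add])
      (fun x => by
        have := h κ ((u⁻¹ : (Module.End F (I → F))ˣ).val x)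
        rw [apply_inv_apply] at this
        exact this)
    refine ⟨c, ?_⟩
    apply Matrix.toLin'.injective
    apply LinearMap.ext
    intro x
    have h3 := hc x
    simp only [hu, toUI_apply, toUI_inv_apply, hι] at h3
    simpa only [Matrix.toLin'_apply, ← Matrix.mulVec_mulVec] using h3
  choose c hc using hconj
  have hιinj : Function.Injective ι := by
    intro a b hab
    have : Nontrivial (I → F) := Module.nontrivial_of_finrank_pos (R := K') (by omega)
    obtain ⟨x, hx⟩ : ∃ x : I → F, x ≠ 0 := exists_ne 0
    have : a • x = b • x := by rw [hι, hι, hab]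
    exact smul_left_injective K' hx this
  have hcinj : Function.Injective c := by
    intro a b hab
    apply hιinj
    have e1 := hc a
    have e2 := hc b
    rw [hab, ← e2] at e1
    have e3 := congrArg
      (fun m => ((g⁻¹ : GL I F) : Matrix I I F) * m * (g : Matrix I I F)) e1
    simpa only [mul_assoc, h2, mul_one, ← mul_assoc (g⁻¹ : GL I F).val (g : Matrix I I F),
      one_mul] using e3
  have hcsurj : Function.Surjective c := Finite.injective_iff_surjective.mp hcinj
  intro k
  constructor
  · rintro ⟨a, rfl⟩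
    exact ⟨c a, (hc a).symm⟩
  · rintro ⟨a, ha⟩
    obtain ⟨b, rfl⟩ := hcsurj a
    have ha' : ι (c b) = (g : Matrix I I F) * k *
        ((g⁻¹ : GL I F) : Matrix I I F) := ha
    refine ⟨b, ?_⟩
    change ι b = k
    rw [← hc b] at ha'
    have e3 := congrArg
      (fun m => ((g⁻¹ : GL I F) : Matrix I I F) * m * (g : Matrix I I F)) ha'
    simpa only [mul_assoc, h2, mul_one, ← mul_assoc (g⁻¹ : GL I F).val (g : Matrix I I F),
      one_mul] using e3

end TransferI

section Form

variable {F K : Type*} [Field F] [Field K] [Algebra F K] {V : Type*} [AddCommGroup V] [Module F V]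
  [Module K V] [IsScalarTower F K V]

/-- The `K`-form of a trace-compatible `F`-form. -/
theorem exists_K_form [FiniteDimensional F K] [FiniteDimensional K V] [Algebra.IsSeparable F K]
    (B : LinearMap.BilinForm F V) (hsa : ∀ (k : K) (u v : V), B (k • u) v = B u (k • v)) :
    ∃ b : V →ₗ[K] V →ₗ[K] K, ∀ x y, Algebra.trace F K (b x y) = B x y := by
  have hne : Algebra.trace F K ≠ 0 := by
    obtain ⟨t, ht⟩ := Algebra.trace_surjective F K 1
    intro h
    rw [h] at ht
    exact zero_ne_one ht
  choose f hf using fun y : V => exists_functional (F := F) (K := K) hne (B.flip y)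
  have huniq : ∀ g g' : V →ₗ[K] K, (∀ x, Algebra.trace F K (g x) = Algebra.trace F K (g' x)) →
      g = g' := by
    intro g g' h
    ext x
    rw [← sub_eq_zero]
    apply tr_nd (F := F)
    intro t
    have := h (t • x)
    rw [map_smul g t x, map_smul g' t x, smul_eq_mul, smul_eq_mul] at this
    rw [mul_sub, map_sub, this, sub_self]
  have hadd : ∀ y y', f (y + y') = f y + f y' := by
    intro y y'
    apply huniq
    intro x
    have h1 := hf (y + y') x
    rw [LinearMap.add_apply, map_add (Algebra.trace F K), ← hf y x, ← hf y' x, ← h1]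
    simp
  have hsmul : ∀ (k : K) y, f (k • y) = k • f y := by
    intro k y
    apply huniq
    intro x
    have h1 := hf (k • y) x
    have h2 := hf y (k • x)
    have h3 : B.flip (k • y) x = B.flip y (k • x) := by
      exact (hsa k x y).symm
    rw [map_smul (f y) k x, smul_eq_mul] at h2
    rw [LinearMap.smul_apply, smul_eq_mul, ← h1, h3, h2]
  refine ⟨LinearMap.mk₂ K (fun x y => f y x) (fun x x' y => map_add _ _ _)
    (fun k x y => map_smul _ _ _) (fun x y y' => by simp only [hadd, LinearMap.add_apply])
    (fun k x y => by simp only [hsmul, LinearMap.smul_apply]), ?_⟩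
  intro x y
  exact (hf y x).symm

end Form

section Main

open Cfsg Cfsg.Geo Cfsg.Agent.Lib.Classical.Symp.Basic Cfsg.Agent.Lib.Classical.Symp.SpGL

variable {F : Type*} [Field F] {m : ℕ} {K' : Type*} [Field K'] [Algebra F K']
  [Module K' (Fin m ⊕ Fin m → F)] [IsScalarTower F K' (Fin m ⊕ Fin m → F)]
  {ι : K' →ₐ[F] Matrix (Fin m ⊕ Fin m) (Fin m ⊕ Fin m) F}

/-- **The abstract main theorem.** -/
theorem main_sp [Finite F] [FiniteDimensional F K'] [FiniteDimensional K' (Fin m ⊕ Fin m → F)]
    [Algebra.IsSeparable F K']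
    (hι : ∀ (k : K') (x : Fin m ⊕ Fin m → F), k • x = (ι k).mulVec x)
    (hr : (finrank F K').Prime) (hm : 2 ≤ finrank K' (Fin m ⊕ Fin m → F))
    (hdim : finrank F K' = 2 → 3 ≤ finrank K' (Fin m ⊕ Fin m → F))
    (hsa : ∀ (k : K') (u v : Fin m ⊕ Fin m → F), sympForm m F (k • u) v = sympForm m F u (k • v))
    (halt : ∀ (k : K') (v : Fin m ⊕ Fin m → F), sympForm m F (k • v) v = 0) :
    IsMaximalIn (spGL m F) (subalgebraNormalizer ι.range ⊓ spGL m F) := by
  classical
  obtain ⟨b, hb⟩ := exists_K_form (F := F) (K := K') (sympBilin m F) (fun k u v => hsa k u v)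
  have hb' : ∀ x y, Algebra.trace F K' (b x y) = sympForm m F x y := hb
  have halt' : ∀ x, b x x = 0 := by
    intro x
    apply tr_nd (F := F)
    intro t
    have h1 := hb' (t • x) x
    rw [map_smul, LinearMap.smul_apply, smul_eq_mul, halt] at h1
    exact h1
  have hnd : ∀ x, (∀ y, b x y = 0) → x = 0 := by
    intro x hx
    apply sympBilin_nondegenerate.1 x
    intro y
    change sympForm m F x y = 0
    rw [← hb', hx, map_zero]
  have key : ∀ M : Subgroup (GL (Fin m ⊕ Fin m) F),
      subalgebraNormalizer ι.range ⊓ spGL m F ≤ M → M ≤ spGL m F →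
      ¬ M ≤ subalgebraNormalizer ι.range → spGL m F ≤ M := by
    intro M hM hMS hle
    have hG : SpG b (M.map toUI.toMonoidHom) := by
      refine ⟨halt', hnd, ?_, ?_⟩
      · intro u hu x y
        rw [Subgroup.mem_map_equiv] at hu
        have h1 := hMS hu x y
        have hu' : toUI (toUI.symm u) = u := MulEquiv.apply_symm_apply _ _
        rw [hb', hb']
        rw [← hu', toUI_apply, toUI_apply]
        exact h1
      · intro u hlin hiso
        rw [Subgroup.mem_map_equiv]
        have hu' : toUI (toUI.symm u) = u := MulEquiv.apply_symm_apply _ _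
        apply hM
        constructor
        · apply memN_of_linear hι
          rw [hu']
          exact hlin
        · intro x y
          change sympForm m F (((toUI.symm u : GL _ F) : Matrix _ _ F) *ᵥ x)
            (((toUI.symm u : GL _ F) : Matrix _ _ F) *ᵥ y) = _
          rw [← toUI_apply, ← toUI_apply, hu', ← hb', hiso, hb']
    obtain ⟨g, hg, hgN⟩ := SetLike.not_le_iff_exists.mp hle
    have hline : ∃ (κ : K') (v : Fin m ⊕ Fin m → F),
        ((toUI g : (Module.End F (Fin m ⊕ Fin m → F))ˣ) : Module.End F (Fin m ⊕ Fin m → F)) (κ • v)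
          ∉ kline F K' (((toUI g : (Module.End F (Fin m ⊕ Fin m → F))ˣ) :
              Module.End F (Fin m ⊕ Fin m → F)) v) := by
      by_contra hc
      push Not at hc
      exact hgN (memN_of_line hι hm hc)
    obtain ⟨κ, v, hκ⟩ := hline
    have hv : v ≠ 0 := by
      rintro rfl
      apply hκ
      simp only [smul_zero, map_zero]
      exact Submodule.zero_mem _
    have hgM : toUI g ∈ M.map toUI.toMonoidHom := Subgroup.mem_map_of_mem _ hg
    apply spGL_le_of_forall
    intro w c
    have hin := (hG.core hr hdim hgM hv hκ w c).mem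
    rw [Subgroup.mem_map_equiv] at hin
    convert hin using 1
    rw [MulEquiv.eq_symm_apply]
    apply Units.ext
    apply LinearMap.ext
    intro x
    rw [toUI_apply, gt_mulVec]
    simp [TT_apply, hb']
  -- strictness
  have hV : Nontrivial (Fin m ⊕ Fin m → F) := Module.nontrivial_of_finrank_pos (R := K') (by omega)
  obtain ⟨v, hv⟩ : ∃ v : Fin m ⊕ Fin m → F, v ≠ 0 := exists_ne 0
  obtain ⟨k, hk⟩ : ∃ k : K', k ∉ (algebraMap F K').range := by
    by_contra h
    push Not at h
    have hs : Function.Surjective (algebraMap F K') := fun x => h x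
    have e := (AlgEquiv.ofBijective (Algebra.ofId F K') ⟨(algebraMap F K').injective, hs⟩)
    have := e.toLinearEquiv.finrank_eq
    simp at this
    have := hr.two_le
    omega
  have hkv : k • v ∉ Submodule.span F {v} := by
    intro hmem
    obtain ⟨s, hs⟩ := Submodule.mem_span_singleton.mp hmem
    have h2 : (algebraMap F K' s) • v = k • v := by rw [algebraMap_smul]; exact hs
    exact hk ⟨s, smul_left_injective K' hv h2⟩
  obtain ⟨φ, hφ, hφk⟩ := exists_func _ hkv (1 : F)
  have hφv : φ v = 0 := hφ v (Submodule.mem_span_singleton_self v)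
  set w := ((sympBilin m F).toDual sympBilin_nondegenerate).symm φ with hw
  have hwx : ∀ x, sympForm m F w x = φ x := fun x =>
    LinearMap.BilinForm.apply_toDual_symm_apply (B := sympBilin m F)
      (hB := sympBilin_nondegenerate) φ x
  have hnot : gt w (1 : F) ∉ subalgebraNormalizer ι.range := by
    intro hN
    have h1 := line_of_memN hι hN k v
    simp only [toUI_apply, gt_mulVec] at h1
    rw [sympForm_swap v w, hwx, hφv, sympForm_swap (k • v) w, hwx, hφk] at h1
    simp only [neg_zero, mul_zero, zero_smul, add_zero, mul_neg, mul_one, neg_smul, one_smul] at h1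
    have h2 := (kline F K' v).sub_mem (smul_mem_kline (F := F) v k) h1
    have h3 : k • v - (k • v + -w) = w := by abel
    rw [h3] at h2
    obtain ⟨κ, hκ⟩ := mem_kline.mp h2
    have h4 := hwx (k • v)
    have h5 : b (κ • v) (k • v) = 0 := by simp [halt']
    rw [hφk, ← hκ, ← hb', h5, map_zero] at h4
    exact zero_ne_one h4
  refine ⟨?_, ?_⟩
  · refine lt_of_le_of_ne inf_le_right ?_
    intro h
    apply hnot
    have : gt w (1 : F) ∈ subalgebraNormalizer ι.range ⊓ spGL m F := by
      rw [h]
      exact gt_mem w 1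
    exact this.1
  · intro M hM hMS
    by_cases hle : M ≤ subalgebraNormalizer ι.range
    · left
      exact le_antisymm (le_inf hle hMS) hM
    · right
      exact le_antisymm hMS (key M hM hMS hle)

end Main

end Cfsg.Agent.Lib.Classical.Spread
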